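import Mathlib

/-!
Regular normal subgroups of doubly and triply primitive groups.
-/

namespace CfsgLib.RegularNormal

open MulAction Pointwise

variable {G X : Type*} [Group G] [MulAction G X]

/-- In a primitive action on the points outside `s`, an invariant involution-like pairing is trivial. -/
theorem pairing_trivial [Finite X] {s : Set X}
    (hprim : IsPreprimitive (fixingSubgroup G s) (SubMulAction.ofFixingSubgroup G s))
    (σ : X → X) (hσ : ∀ y, y ∉ s → σ y ∉ s) (hσσ : ∀ y, y ∉ s → σ (σ y) = y)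
    (heq : ∀ g ∈ fixingSubgroup G s, ∀ y, y ∉ s → σ (g • y) = g • σ y)
    (hcard : 2 < (sᶜ).ncard) : ∀ y, y ∉ s → σ y = y := by
  intro y hy
  have hy' : y ∈ SubMulAction.ofFixingSubgroup G s := hy
  have hσy' : σ y ∈ SubMulAction.ofFixingSubgroup G s := hσ y hy
  set B : Set (SubMulAction.ofFixingSubgroup G s) := {⟨y, hy'⟩, ⟨σ y, hσy'⟩} with hB
  have hblock : IsBlock (fixingSubgroup G s) B := by
    rw [isBlock_iff_smul_eq_of_mem]
    intro g z hz hgz
    have hval : ∀ w : SubMulAction.ofFixingSubgroup G s,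
        ((g • w : SubMulAction.ofFixingSubgroup G s) : X) = (g : G) • (w : X) := fun w => rfl
    have h1 := heq g g.2 y hy
    have h2 : σ ((g : G) • σ y) = (g : G) • y := by rw [heq g g.2 _ (hσ y hy), hσσ y hy]
    rw [hB, Set.smul_set_insert, Set.smul_set_singleton]
    simp only [hB, Set.mem_insert_iff, Set.mem_singleton_iff] at hz hgz
    have key : ((g : G) • y = y ∧ (g : G) • σ y = σ y) ∨ ((g : G) • y = σ y ∧ (g : G) • σ y = y) := by
      rcases hz with rfl | rfl <;> rcases hgz with e | e <;>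
        · have e' := congrArg Subtype.val e
          rw [hval] at e'
          simp only at e'
          first
            | exact Or.inl ⟨e', by rw [← h1, e']⟩
            | exact Or.inr ⟨e', by rw [← h1, e', hσσ y hy]⟩
            | exact Or.inr ⟨by rw [← h2, e'], e'⟩
            | exact Or.inl ⟨by rw [← h2, e', hσσ y hy], e'⟩
    rcases key with ⟨a, b⟩ | ⟨a, b⟩
    · rw [show g • (⟨y, hy'⟩ : SubMulAction.ofFixingSubgroup G s) = ⟨y, hy'⟩ from Subtype.ext a,
        show g • (⟨σ y, hσy'⟩ : SubMulAction.ofFixingSubgroup G s) = ⟨σ y, hσy'⟩ from Subtype.ext b]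
    · rw [show g • (⟨y, hy'⟩ : SubMulAction.ofFixingSubgroup G s) = ⟨σ y, hσy'⟩ from Subtype.ext a,
        show g • (⟨σ y, hσy'⟩ : SubMulAction.ofFixingSubgroup G s) = ⟨y, hy'⟩ from Subtype.ext b,
        Set.pair_comm]
  rcases hprim.isTrivialBlock_of_isBlock hblock with hs | hu
  · exact congrArg Subtype.val (hs (Or.inr rfl : (⟨σ y, hσy'⟩ : SubMulAction.ofFixingSubgroup G s) ∈ B) (Or.inl rfl))
  · exfalso
    have hsub : sᶜ ⊆ {y, σ y} := by
      intro w hw
      have : (⟨w, hw⟩ : SubMulAction.ofFixingSubgroup G s) ∈ B := hu ▸ Set.mem_univ _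
      rcases this with h | h
      · exact Or.inl (congrArg Subtype.val h)
      · exact Or.inr (congrArg Subtype.val h)
    have h1 := Set.ncard_le_ncard hsub
    have h2 : ({y, σ y} : Set X).ncard ≤ 2 := by
      by_cases e : y = σ y
      · rw [← e]; simp
      · rw [Set.ncard_pair e]
    omega

variable {N : Subgroup G}

theorem eq_of_smul_eq (hreg : ∀ x : X, stabilizer N x = ⊥) {m n : N} {x : X} (h : m • x = n • x) :
    m = n := by
  have : n⁻¹ * m ∈ stabilizer N x := by rw [mem_stabilizer_iff, mul_smul, h, inv_smul_smul]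
  rw [hreg x, Subgroup.mem_bot] at this
  exact (inv_mul_eq_one.mp this).symm

theorem double [Fintype X] (hX : 2 ≤ Fintype.card X) (h2 : IsMultiplyPreprimitive G X 2) [N.Normal]
    (htrans : IsPretransitive N X) (hreg : ∀ x : X, stabilizer N x = ⊥) :
    Fintype.card X = 3 ∨ (IsMulCommutative N ∧ (∀ n ∈ N, n ^ 2 = 1) ∧ ∃ m : ℕ, Fintype.card X = 2 ^ m) := by
  classical
  obtain ⟨x⟩ : Nonempty X := Fintype.card_pos_iff.mp (by omega)
  have hbij : Function.Bijective (fun n : N => n • x) :=
    ⟨fun m n h => eq_of_smul_eq hreg h, fun y => htrans.exists_smul_eq x y⟩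
  haveI : Finite N := Finite.of_equiv _ (Equiv.ofBijective _ hbij).symm
  have hNcard : Nat.card N = Fintype.card X := by
    rw [Nat.card_congr (Equiv.ofBijective _ hbij), Nat.card_eq_fintype_card]
  by_cases h3 : Fintype.card X = 3
  · exact Or.inl h3
  refine Or.inr ?_
  have hsq : ∀ n : N, n ^ 2 = 1 := by
    rcases Nat.lt_or_ge (Fintype.card X) 3 with hlt | hge
    · intro n
      have h := pow_card_eq_one' (x := n)
      rwa [hNcard, show Fintype.card X = 2 by omega] at h
    choose ν hν using fun y : X => hbij.2 y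
    intro n
    by_cases hn : n = 1
    · simp [hn]
    have hprim := IsMultiplyPreprimitive.isPreprimitive_ofFixingSubgroup (α := X) G 2 (s := {x}) (by rw [Set.encard_singleton]; rfl)
    have := pairing_trivial hprim (fun y => (ν y)⁻¹ • x) ?_ ?_ ?_ ?_ (n • x) ?_
    · have e : ν (n • x) = n := hbij.1 (hν (n • x))
      rw [e] at this
      rw [pow_two]
      have e2 : n⁻¹ = n := hbij.1 this
      conv_lhs => arg 1; rw [← e2]
      rw [inv_mul_cancel]
    · intro y hy h
      rw [Set.mem_singleton_iff] at h hy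
      have : (ν y)⁻¹ = 1 := hbij.1 (show (ν y)⁻¹ • x = (1 : N) • x by rw [h, one_smul])
      rw [inv_eq_one] at this
      exact hy (by rw [← hν y, this]; simp)
    · intro y _
      have : ν ((ν y)⁻¹ • x) = (ν y)⁻¹ := hbij.1 (hν _)
      rw [this, inv_inv]
      exact hν y
    · intro g hg y _
      rw [mem_fixingSubgroup_iff] at hg
      have hgx : g • x = x := hg x rfl
      have hgx' : g⁻¹ • x = x := inv_smul_eq_iff.mpr hgx.symm
      have : ν (g • y) = ⟨g * ν y * g⁻¹, (inferInstance : N.Normal).conj_mem _ (ν y).2 g⟩ := by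
        refine hbij.1 ((hν (g • y)).trans ?_)
        show g • y = (g * ν y * g⁻¹) • x
        rw [mul_smul, mul_smul, hgx', show ((ν y : N) : G) • x = y from hν y]
      rw [this]
      show ((g * ν y * g⁻¹)⁻¹ : G) • x = g • (((ν y : N) : G)⁻¹ • x)
      rw [mul_inv_rev, mul_inv_rev, inv_inv, mul_smul, mul_smul, hgx']
    · rw [Set.ncard_compl, Set.ncard_singleton, Nat.card_eq_fintype_card]
      omega
    · intro h
      exact hn (hbij.1 (show n • x = (1 : N) • x by rw [Set.mem_singleton_iff.mp h, one_smul]))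
  refine ⟨⟨⟨fun a b => ?_⟩⟩, fun n hn => congrArg Subtype.val (hsq ⟨n, hn⟩), ?_⟩
  · have hi : ∀ c : N, c⁻¹ = c := fun c => inv_eq_of_mul_eq_one_right (by rw [← pow_two]; exact hsq c)
    have := hi (a * b)
    rw [mul_inv_rev, hi a, hi b] at this
    exact this.symm
  · haveI : Fact (Nat.Prime 2) := ⟨Nat.prime_two⟩
    obtain ⟨m, hm⟩ := IsPGroup.iff_card.mp (fun n : N => ⟨1, by rw [pow_one]; exact hsq n⟩ : IsPGroup 2 N)
    exact ⟨m, hNcard ▸ hm⟩

theorem triple [Fintype X] (hX : 3 ≤ Fintype.card X) (h3 : IsMultiplyPreprimitive G X 3) [N.Normal]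
    (htrans : IsPretransitive N X) (hreg : ∀ x : X, stabilizer N x = ⊥) :
    Fintype.card X = 3 ∨ Fintype.card X = 4 := by
  classical
  by_contra hne
  push Not at hne
  have h2 : IsMultiplyPreprimitive G X 2 := by
    obtain ⟨x⟩ : Nonempty X := Fintype.card_pos_iff.mp (by omega)
    refine isMultiplyPreprimitive_of_le _ _ h3 (by omega) ?_
    simp; omega
  rcases double (by omega) h2 htrans hreg with h | ⟨-, hsq, -⟩
  · exact hne.1 h
  obtain ⟨x, y, hxy⟩ := Fintype.exists_pair_of_one_lt_card (α := X) (by omega)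
  obtain ⟨n, hn⟩ := htrans.exists_smul_eq x y
  have hn0 : (n : G) ≠ 1 := fun h => hxy (by
    rw [← hn]; show x = (n : G) • x; rw [h, one_smul])
  have hnn : (n : G) • y = x := by
    rw [← hn]; show (n : G) • ((n : G) • x) = x
    rw [← mul_smul, ← pow_two, hsq n n.2, one_smul]
  have hprim := IsMultiplyPreprimitive.isPreprimitive_ofFixingSubgroup (α := X) G 3 (s := {x, y})
    (by rw [Set.encard_pair hxy]; rfl)
  have := pairing_trivial hprim (fun z => (n : G) • z) ?_ ?_ ?_ ?_
  · obtain ⟨z, hz⟩ : ∃ z, z ∉ ({x, y} : Set X) := by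
      by_contra h
      push Not at h
      have := Set.ncard_le_ncard (fun z (_ : z ∈ Set.univ) => h z)
      rw [Set.ncard_univ, Nat.card_eq_fintype_card, Set.ncard_pair hxy] at this
      omega
    have := this z hz
    have e : n = 1 := eq_of_smul_eq hreg (x := z) (by rw [one_smul]; exact this)
    exact hn0 (by rw [e]; rfl)
  · intro z hz h
    rcases h with h | h
    · exact hz (Or.inr (MulAction.injective (n : G) (h.trans hnn.symm)))
    · exact hz (Or.inl (MulAction.injective (n : G) ((Set.mem_singleton_iff.mp h).trans hn.symm)))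
  · intro z _
    show (n : G) • ((n : G) • z) = z
    rw [← mul_smul, ← pow_two, hsq n n.2, one_smul]
  · intro g hg z _
    rw [mem_fixingSubgroup_iff] at hg
    have e : (⟨g * n * g⁻¹, (inferInstance : N.Normal).conj_mem _ n.2 g⟩ : N) = n := by
      refine eq_of_smul_eq hreg (x := x) ?_
      show (g * (n : G) * g⁻¹) • x = n • x
      rw [mul_smul, mul_smul, inv_smul_eq_iff.mpr (hg x (Or.inl rfl)).symm,
        show (n : G) • x = y from hn, hg y (Or.inr rfl), hn]
    have e' : g * (n : G) * g⁻¹ = n := congrArg Subtype.val e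
    show (n : G) • (g • z) = g • ((n : G) • z)
    conv_lhs => rw [← e']
    rw [mul_smul, mul_smul, inv_smul_smul]
  · rw [Set.ncard_compl, Set.ncard_pair hxy, Nat.card_eq_fintype_card]
    omega

end CfsgLib.RegularNormal
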