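import Mathlib
import Cfsg.Agent.RegularNormal.Primitive
import Cfsg.Agent.SharpTwo.Basic

/-!
Normal subgroups of multiply transitive groups.
-/

namespace CfsgLib.RegularNormal

open MulAction

theorem preprimitive_of_transitive {G α : Type*} [Group G] [MulAction G α] [Finite α] {n : ℕ}
    (hn : n + 1 ≤ Nat.card α) (h : IsMultiplyPretransitive G α (n + 1)) :
    IsMultiplyPreprimitive G α n := by
  haveI := h
  refine ⟨isMultiplyPretransitive_of_le (n := n + 1) (Nat.le_succ n) hn, fun {s} hs => ?_⟩
  haveI : Finite s := inferInstance
  have hs' : s.ncard + 1 = n := by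
    rw [← Set.Finite.cast_ncard_eq (Set.toFinite s)] at hs
    exact_mod_cast hs
  apply isPreprimitive_of_is_two_pretransitive
  exact SubMulAction.ofFixingSubgroup.isMultiplyPretransitive (G := G) s (m := 2) (n := n + 1) (by omega)

theorem transitive_of_normal {G α : Type*} [Group G] [MulAction G α] [FaithfulSMul G α] [Finite α]
    (h2 : IsMultiplyPretransitive G α 2) (N : Subgroup G) [N.Normal] (hN : N ≠ ⊥) :
    IsPretransitive N α := by
  haveI := isPreprimitive_of_is_two_pretransitive h2
  apply IsQuasiPreprimitive.isPretransitive_of_normal (G := G)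
  intro hfix
  refine hN ((Subgroup.eq_bot_iff_forall N).mpr fun n hn => ?_)
  refine FaithfulSMul.eq_of_smul_eq_smul (α := α) fun a => ?_
  rw [one_smul]
  exact (Set.eq_univ_iff_forall.mp hfix a) ⟨n, hn⟩

theorem transitive_succ {G α : Type*} [Group G] [MulAction G α] (N : Subgroup G)
    [IsPretransitive N α] (a : α) {n : ℕ}
    (h : IsMultiplyPretransitive (N.subgroupOf (stabilizer G a)) (SubMulAction.ofStabilizer G a) n) :
    IsMultiplyPretransitive N α (n + 1) := by
  rw [SubMulAction.ofStabilizer.isMultiplyPretransitive (G := N) (a := a)]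
  let φ : N.subgroupOf (stabilizer G a) → stabilizer N a := fun x => ⟨⟨(x : stabilizer G a), x.2⟩, (x : stabilizer G a).2⟩
  let f : SubMulAction.ofStabilizer G a →ₑ[φ] SubMulAction.ofStabilizer N a :=
    { toFun := fun y => ⟨y.1, y.2⟩
      map_smul' := fun x y => rfl }
  haveI := h
  exact IsPretransitive.of_embedding (f := f) (fun y => ⟨⟨y.1, y.2⟩, rfl⟩)

/-- Jordan: normal subgroups of a `k`-transitive group. -/
theorem normal_transitive (k : ℕ) : ∀ {G α : Type*} [Group G] [MulAction G α] [FaithfulSMul G α]
    [Finite α], k + 2 < Nat.card α → IsMultiplyPretransitive G α (k + 2) →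
    ∀ N : Subgroup G, N.Normal → N ≠ ⊥ →
      IsMultiplyPretransitive N α (k + 1) ∨ (k = 1 ∧ IsMulCommutative N ∧ ∀ n ∈ N, n ^ 2 = 1) := by
  induction k with
  | zero =>
    intro G α _ _ _ _ hcard hG N hNn hN
    haveI := hNn
    exact Or.inl (is_one_pretransitive_iff.mpr (transitive_of_normal hG N hN))
  | succ k ih =>
    intro G α _ _ _ _ hcard hG N hNn hN
    haveI := hNn
    haveI := Fintype.ofFinite α
    haveI h2 : IsMultiplyPretransitive G α 2 :=
      haveI := hG
      isMultiplyPretransitive_of_le (n := k + 1 + 2) (by omega) hcard.le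
    haveI hNt := transitive_of_normal h2 N hN
    haveI : IsPretransitive G α := isPretransitive_of_is_two_pretransitive
    have hprim : IsMultiplyPreprimitive G α (k + 2) := preprimitive_of_transitive hcard.le hG
    by_cases hreg : ∀ a : α, stabilizer N a = ⊥
    · have hcard' : k + 3 < Fintype.card α := by rw [← Nat.card_eq_fintype_card]; exact hcard
      rcases Nat.eq_zero_or_pos k with rfl | hk
      · rcases double (by omega) hprim hNt hreg with h | ⟨h1, h2, -⟩
        · omega
        · exact Or.inr ⟨rfl, h1, h2⟩
      · have h3 : IsMultiplyPreprimitive G α 3 :=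
          isMultiplyPreprimitive_of_le _ _ hprim (by omega) (by simp only [ENat.card_eq_coe_fintype_card]; norm_cast; omega)
        rcases triple (by omega) h3 hNt hreg with h | h <;> omega
    · push Not at hreg
      obtain ⟨a, ha⟩ := hreg
      have hne : N.subgroupOf (stabilizer G a) ≠ ⊥ := by
        intro hbot
        refine ha ((Subgroup.eq_bot_iff_forall _).mpr fun n hn => ?_)
        have : (⟨(n : G), hn⟩ : stabilizer G a) ∈ N.subgroupOf (stabilizer G a) := n.2
        rw [hbot, Subgroup.mem_bot] at this
        exact Subtype.ext (congrArg (Subtype.val : stabilizer G a → G) this)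
      haveI : FaithfulSMul (stabilizer G a) (SubMulAction.ofStabilizer G a) := by
        refine ⟨fun {g h} hgh => Subtype.ext (FaithfulSMul.eq_of_smul_eq_smul (α := α) fun b => ?_)⟩
        by_cases hb : b = a
        · subst hb; exact g.2.trans h.2.symm
        · exact congrArg Subtype.val (hgh ⟨b, hb⟩)
      have hcardX : Nat.card (SubMulAction.ofStabilizer G a) + 1 = Nat.card α :=
        SubMulAction.nat_card_ofStabilizer_add_one_eq (G := G) (a := a)
      have hGa : IsMultiplyPretransitive (stabilizer G a) (SubMulAction.ofStabilizer G a) (k + 2) :=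
        (SubMulAction.ofStabilizer.isMultiplyPretransitive (G := G) (a := a)).mp hG
      rcases ih (by omega) hGa _ inferInstance hne with hIH | ⟨hk1, hcomm, hsq⟩
      · exact Or.inl (transitive_succ N a hIH)
      · exfalso
        subst hk1
        haveI := hcomm
        set Na := N.subgroupOf (stabilizer G a) with hNa
        have hXt : IsPretransitive Na (SubMulAction.ofStabilizer G a) :=
          transitive_of_normal (haveI := hGa; isMultiplyPretransitive_of_le (n := 1 + 2) (by omega) (by omega)) Na hne
        have hsemi : ∀ (m : Na) (z : SubMulAction.ofStabilizer G a), m • z = z → m = 1 := by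
          intro m z hz
          have : (m : stabilizer G a) = 1 := FaithfulSMul.eq_of_smul_eq_smul (α := SubMulAction.ofStabilizer G a) fun w => by
            obtain ⟨m', rfl⟩ := hXt.exists_smul_eq z w
            rw [one_smul]
            show m • m' • z = m' • z
            rw [← mul_smul, mul_comm', mul_smul, hz]
          exact Subtype.ext this
        haveI hN2 : IsMultiplyPretransitive N α 2 :=
          transitive_succ N a (is_one_pretransitive_iff.mpr hXt)
        have hsharp : ∀ x : Fin 2 ↪ α, stabilizer N x = ⊥ := by
          intro x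
          rw [Subgroup.eq_bot_iff_forall]
          intro n hn
          obtain ⟨g, hg⟩ := MulAction.exists_smul_eq G (x 0) a
          have hn0 : (n : G) • x 0 = x 0 := congrArg (fun y : Fin 2 ↪ α => y 0) hn
          have hn1 : (n : G) • x 1 = x 1 := congrArg (fun y : Fin 2 ↪ α => y 1) hn
          have hm : g * n * g⁻¹ ∈ stabilizer G a := by
            rw [mem_stabilizer_iff, mul_smul, mul_smul, inv_smul_eq_iff.mpr hg.symm, hn0, hg]
          have hz : g • x 1 ≠ a := fun h =>
            absurd (x.injective (MulAction.injective g (h.trans hg.symm))) (by decide)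
          have h1 := hsemi ⟨⟨g * n * g⁻¹, hm⟩, hNn.conj_mem _ n.2 g⟩ ⟨g • x 1, hz⟩
            (Subtype.ext (by
              show (g * n * g⁻¹) • (g • x 1) = g • x 1
              rw [mul_smul, inv_smul_smul, mul_smul, hn1]))
          have h1' : g * n * g⁻¹ = 1 :=
            congrArg (fun m : Na => ((m : stabilizer G a) : G)) h1
          exact Subtype.ext (conj_eq_one_iff.mp h1')
        haveI : Finite G := Finite.of_injective (fun g : G => fun b : α => g • b)
          (fun g h e => FaithfulSMul.eq_of_smul_eq_smul fun b => congrFun e b)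
        obtain ⟨p, j, K, hp, hj, hcardα, -, -, hmem, -, -, hKsemi, hKtr⟩ :=
          CfsgLib.SharpTwo.exists_regular_normal (G := N) hsharp (by omega)
        haveI : (K.map N.subtype).Normal := by
          constructor
          rintro _ ⟨m, hm, rfl⟩ g
          refine ⟨⟨g * m * g⁻¹, hNn.conj_mem _ m.2 g⟩, (hmem _).mpr ?_, rfl⟩
          rcases (hmem m).mp hm with h | h
          · left
            subst h
            exact Subtype.ext (by simp)
          · right
            intro b hb
            apply h (g⁻¹ • b)
            show (m : G) • g⁻¹ • b = g⁻¹ • b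
            rw [eq_inv_smul_iff, ← mul_smul, ← mul_smul]
            exact hb
        have hKt : IsPretransitive (K.map N.subtype) α := ⟨fun x y => by
          obtain ⟨m, hm, hxy⟩ := hKtr x y
          exact ⟨⟨m, ⟨m, hm, rfl⟩⟩, hxy⟩⟩
        have hKreg : ∀ x : α, stabilizer (K.map N.subtype) x = ⊥ := by
          intro x
          rw [Subgroup.eq_bot_iff_forall]
          rintro ⟨_, m, hm, rfl⟩ hx
          exact Subtype.ext (by simp [hKsemi m hm x hx])
        have hcard' : 5 ≤ Fintype.card α := by rw [← Nat.card_eq_fintype_card]; omega
        have h3 : IsMultiplyPreprimitive G α 3 := by simpa using hprim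
        rcases triple (by omega) h3 hKt hKreg with h | h <;> omega

end CfsgLib.RegularNormal
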