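import Mathlib
import Cfsg.Agent.RegularNormal.Jordan

/-!
Wagner: normal subgroups of triply transitive groups of odd degree.
-/

namespace CfsgLib.RegularNormal

open MulAction
open scoped Pointwise

/-- The orbit length of a normal subgroup divides the orbit length of the group. -/
theorem ncard_orbit_dvd {L α : Type*} [Group L] [MulAction L α] [Finite L] (M : Subgroup L)
    [M.Normal] (x : α) : (orbit M x).ncard ∣ (orbit L x).ncard := by
  rw [← index_stabilizer (G := L), ← index_stabilizer (G := M)]
  have hst : stabilizer M x = (stabilizer L x).subgroupOf M := by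
    ext m
    exact Iff.rfl
  rw [hst]
  change (stabilizer L x).relIndex M ∣ (stabilizer L x).index
  set S := stabilizer L x
  have e1 := Subgroup.relIndex_mul_index (inf_le_left : S ⊓ M ≤ S)
  have e2 := Subgroup.relIndex_mul_index (inf_le_right : S ⊓ M ≤ M)
  have e3 := Subgroup.relIndex_mul_index (le_sup_right : M ≤ S ⊔ M)
  rw [Subgroup.inf_relIndex_left] at e1
  rw [Subgroup.inf_relIndex_right] at e2
  rw [Subgroup.relIndex_sup_right] at e3
  have hq : M.relIndex S ≠ 0 := Subgroup.index_ne_zero_of_finite
  refine ⟨(S ⊔ M).index, mul_left_cancel₀ hq ?_⟩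
  rw [e1, ← e2, ← e3]
  ring

theorem wagner {G α : Type*} [Group G] [Finite G] [MulAction G α] [Finite α]
    (hodd : Odd (Nat.card α)) (hG : IsMultiplyPretransitive G α 3) (N : Subgroup G) [N.Normal]
    (hN : IsMultiplyPretransitive N α 2) : IsMultiplyPretransitive N α 3 := by
  have hN2 : ∀ {a b c d : α}, a ≠ b → c ≠ d → ∃ g : N, g • a = c ∧ g • b = d := is_two_pretransitive_iff.mp hN
  have key : ∀ a b c d : α, a ≠ b → c ≠ a → c ≠ b → d ≠ a → d ≠ b →
      ∃ n : N, n • a = a ∧ n • b = b ∧ n • c = d := by
    intro a b c d hab hca hcb hda hdb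
    set R : Set α := ({a, b} : Set α)ᶜ with hR
    have hRcard : R.ncard + 2 = Nat.card α := by
      rw [← Set.ncard_pair hab, add_comm, Set.ncard_add_ncard_compl]
    have hRodd : Odd R.ncard := by
      rw [← hRcard] at hodd
      exact Nat.odd_add.mp hodd |>.mpr even_two
    set L : Subgroup G := stabilizer G ({a, b} : Set α) with hL
    have hmemR : ∀ x : α, x ∈ R ↔ x ≠ a ∧ x ≠ b := by intro x; simp [hR]
    have hset : ∀ l : L, (l : G) • ({a, b} : Set α) = {a, b} := fun l => l.2
    have hLR : ∀ (l : L) (x : α), x ∈ R → l • x ∈ R := by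
      intro l x hx h
      apply hx
      have : (l : G) • x ∈ (l : G) • ({a, b} : Set α) := by rw [hset l]; exact h
      exact Set.smul_mem_smul_set_iff.mp this
    have hLorb : ∀ x ∈ R, orbit L x = R := by
      intro x hx
      apply Set.eq_of_subset_of_subset
      · rintro _ ⟨l, rfl⟩
        exact hLR l x hx
      · intro y hy
        obtain ⟨hxa, hxb⟩ := (hmemR x).mp hx
        obtain ⟨hya, hyb⟩ := (hmemR y).mp hy
        haveI := hG
        obtain ⟨g, hg⟩ := exists_smul_eq G
          (⟨![a, b, x], by intro i j h; fin_cases i <;> fin_cases j <;> simp_all⟩ : Fin 3 ↪ α)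
          (⟨![a, b, y], by intro i j h; fin_cases i <;> fin_cases j <;> simp_all⟩ : Fin 3 ↪ α)
        have h0 : g • a = a := congrArg (fun z : Fin 3 ↪ α => z 0) hg
        have h1 : g • b = b := congrArg (fun z : Fin 3 ↪ α => z 1) hg
        have h2 : g • x = y := congrArg (fun z : Fin 3 ↪ α => z 2) hg
        refine ⟨⟨g, ?_⟩, h2⟩
        rw [hL, mem_stabilizer_iff, Set.smul_set_insert, Set.smul_set_singleton, h0, h1]
    set M : Subgroup L := N.subgroupOf L with hM
    have hMdvd : ∀ x ∈ R, (orbit M x).ncard ∣ R.ncard := by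
      intro x hx
      have h := ncard_orbit_dvd M x
      rwa [hLorb x hx] at h
    have hMR : ∀ x ∈ R, orbit M x ⊆ R := by
      rintro x hx _ ⟨m, rfl⟩
      exact hLR (m : L) x hx
    -- an element of `M` interchanges `a` and `b`
    set A : Subgroup M := stabilizer M a with hA
    have hAidx : A.index = 2 := by
      rw [hA, index_stabilizer]
      have : orbit M a = {a, b} := by
        apply Set.eq_of_subset_of_subset
        · rintro _ ⟨m, rfl⟩
          have := Set.smul_mem_smul_set (a := ((m : L) : G)) (Set.mem_insert a {b})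
          rwa [hset] at this
        · intro y hy
          rcases hy with rfl | rfl
          · exact mem_orbit_self _
          · obtain ⟨n, hn1, hn2⟩ := hN2 hab hab.symm
            refine ⟨⟨⟨(n : G), ?_⟩, n.2⟩, hn1⟩
            rw [hL, mem_stabilizer_iff, Set.smul_set_insert, Set.smul_set_singleton]
            show ({n • a, n • y} : Set α) = _
            rw [hn1, hn2, Set.pair_comm]
      rw [this, Set.ncard_pair hab]
    have hAb : ∀ m : A, (m : M) • b = b := by
      intro m
      have hma : (m : M) • a = a := m.2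
      have := Set.smul_mem_smul_set (a := (((m : M) : L) : G))
        (Set.mem_insert_of_mem a (Set.mem_singleton b))
      rw [hset] at this
      rcases this with h | h
      · exact absurd (MulAction.injective (((m : M) : L) : G) (h.trans hma.symm)) hab.symm
      · exact h
    haveI : Fact (Nat.Prime 2) := ⟨Nat.prime_two⟩
    have htrans : ∀ x ∈ R, orbit M x = R := by
      intro x hx
      by_contra hne
      obtain ⟨y, hy, hyx⟩ : ∃ y ∈ R, y ∉ orbit M x :=
        Set.exists_of_ssubset (lt_of_le_of_ne (hMR x hx) hne)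
      let Q : Sylow 2 M := default
      have hfix : ∀ z ∈ R, ∃ w ∈ orbit M z, ∀ q : Q, ((q : M) : M) • w = w := by
        intro z hz
        have hoddz : ¬ 2 ∣ Nat.card (orbit M z) := by
          rw [Nat.card_coe_set_eq, ← even_iff_two_dvd, Nat.not_even_iff_odd]
          exact hRodd.of_dvd_nat (hMdvd z hz)
        obtain ⟨⟨w, hw⟩, hfix⟩ :=
          Q.isPGroup'.nonempty_fixed_point_of_prime_not_dvd_card (orbit M z) hoddz
        exact ⟨w, hw, fun q => congrArg Subtype.val (hfix q)⟩
      obtain ⟨x', hx', hQx⟩ := hfix x hx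
      obtain ⟨y', hy', hQy⟩ := hfix y hy
      have hxy : x' ≠ y' := by
        rintro rfl
        apply hyx
        rw [← orbit_eq_iff.mpr hx', orbit_eq_iff.mpr hy']
        exact mem_orbit_self _
      obtain ⟨n, hn1, hn2⟩ := hN2 hxy hab
      have hconj : ∀ (q : Q) (u u' : α), n • u = u' → (q : M) • u = u →
          ((n : G) * (((q : M) : L) : G) * (n : G)⁻¹) • u' = u' := by
        intro q u u' h1 h2
        rw [← h1]
        show ((n : G) * (((q : M) : L) : G) * (n : G)⁻¹) • (n : G) • u = (n : G) • u
        rw [mul_smul, inv_smul_smul, mul_smul]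
        exact congrArg ((n : G) • ·) h2
      have hmemL : ∀ q : Q, (n : G) * (((q : M) : L) : G) * (n : G)⁻¹ ∈ L := by
        intro q
        refine mem_stabilizer_iff.mpr ?_
        rw [Set.smul_set_insert, Set.smul_set_singleton,
          hconj q x' a hn1 (hQx q), hconj q y' b hn2 (hQy q)]
      let f : Q → A := fun q => ⟨⟨⟨_, hmemL q⟩,
        N.mul_mem (N.mul_mem n.2 (q : M).2) (N.inv_mem n.2)⟩, hconj q x' a hn1 (hQx q)⟩
      have hf : Function.Injective f := by
        intro q q' h
        have := congrArg (fun z : A => (((z : M) : L) : G)) h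
        exact Subtype.ext (Subtype.ext (Subtype.ext (mul_left_cancel (mul_right_cancel this))))
      let φ : Q →* A := MonoidHom.mk' f fun q q' => Subtype.ext (Subtype.ext (Subtype.ext (by
        simp only [f]
        show _ = ((n : G) * (((q : M) : L) : G) * (n : G)⁻¹) *
          ((n : G) * (((q' : M) : L) : G) * (n : G)⁻¹)
        push_cast
        group)))
      obtain ⟨j, hj⟩ := Subgroup.card_dvd_of_injective φ hf
      have hM1 := (Q : Subgroup M).card_mul_index
      have hM2 := A.card_mul_index
      rw [hAidx, hj, ← hM1, mul_assoc] at hM2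
      have hidx : (Q : Subgroup M).index = j * 2 :=
        (Nat.eq_of_mul_eq_mul_left Nat.card_pos hM2).symm
      exact Q.not_dvd_index (hidx ▸ dvd_mul_left 2 j)
    -- hence the two-point stabiliser is transitive
    have hc : c ∈ R := (hmemR c).mpr ⟨hca, hcb⟩
    have hd : d ∈ R := (hmemR d).mpr ⟨hda, hdb⟩
    have hdvd : R.ncard ∣ (orbit A c).ncard * 2 := by
      rw [← hAidx, ← index_stabilizer (G := A), ← htrans c hc, ← index_stabilizer (G := M)]
      have hst : stabilizer A c = (stabilizer M c).subgroupOf A := by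
        ext m
        exact Iff.rfl
      rw [hst]
      change _ ∣ (stabilizer M c).relIndex A * A.index
      rw [← Subgroup.inf_relIndex_right, Subgroup.relIndex_mul_index inf_le_right]
      exact Subgroup.index_dvd_of_le inf_le_left
    have hsub : orbit A c ⊆ R := by
      rintro _ ⟨m, rfl⟩
      exact hMR c hc ⟨(m : M), rfl⟩
    have hle : R.ncard ≤ (orbit A c).ncard :=
      Nat.le_of_dvd ((Set.ncard_pos (Set.toFinite _)).mpr ⟨c, mem_orbit_self _⟩)
        (hRodd.coprime_two_right.dvd_of_dvd_mul_right hdvd)
    have heq : orbit A c = R := Set.eq_of_subset_of_ncard_le hsub hle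
    obtain ⟨m, hm⟩ : d ∈ orbit A c := heq ▸ hd
    exact ⟨⟨(((m : M) : L) : G), (m : M).2⟩, m.2, hAb m, hm⟩
  rw [isMultiplyPretransitive_iff]
  intro x y
  have hne : ∀ (z : Fin 3 ↪ α) {i j : Fin 3}, i ≠ j → z i ≠ z j := fun z i j h h' => h (z.injective h')
  obtain ⟨n, hn0, hn1⟩ := hN2 (hne x (i := 0) (j := 1) (by decide)) (hne y (i := 0) (j := 1) (by decide))
  obtain ⟨m, hm0, hm1, hm2⟩ := key (y 0) (y 1) (n • x 2) (y 2) (hne y (by decide))
    (by rw [← hn0]; exact fun h => hne x (i := 2) (j := 0) (by decide) (MulAction.injective n h))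
    (by rw [← hn1]; exact fun h => hne x (i := 2) (j := 1) (by decide) (MulAction.injective n h))
    (hne y (by decide)) (hne y (by decide))
  refine ⟨m * n, ?_⟩
  ext i
  show (m * n) • x i = y i
  rw [mul_smul]
  fin_cases i
  · exact (congrArg (m • ·) hn0).trans hm0
  · exact (congrArg (m • ·) hn1).trans hm1
  · exact hm2

end CfsgLib.RegularNormal
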