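import Mathlib
import Cfsg.Agent.RegularNormal.Wagner

/-!
Non-regular normal subgroups of multiply primitive groups.
-/

namespace CfsgLib.RegularNormal

open MulAction

theorem card_eq_factorial {G α : Type*} [Group G] [MulAction G α] [FaithfulSMul G α] [Finite α]
    (h : IsMultiplyPretransitive G α (Nat.card α - 1)) : Nat.card G = (Nat.card α).factorial := by
  have hinj : Function.Injective (toPermHom G α) := toPerm_injective
  have htop : (toPermHom G α).range = ⊤ := by
    apply Equiv.Perm.eq_top_of_isMultiplyPretransitive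
    rw [isMultiplyPretransitive_iff]
    intro x y
    haveI := h
    obtain ⟨g, hg⟩ := exists_smul_eq G x y
    exact ⟨⟨toPermHom G α g, g, rfl⟩, hg⟩
  rw [← Nat.card_perm, ← Subgroup.card_top (G := Equiv.Perm α), ← htop]
  exact Nat.card_congr (MonoidHom.ofInjective hinj).toEquiv

theorem faithful_ofStabilizer {G α : Type*} [Group G] [MulAction G α] [FaithfulSMul G α] (a : α) :
    FaithfulSMul (stabilizer G a) (SubMulAction.ofStabilizer G a) := by
  refine ⟨fun {g h} hgh => Subtype.ext (FaithfulSMul.eq_of_smul_eq_smul (α := α) fun b => ?_)⟩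
  by_cases hb : b = a
  · subst hb; exact g.2.trans h.2.symm
  · exact congrArg Subtype.val (hgh ⟨b, hb⟩)

/-- A normal subgroup which is sharply doubly transitive yields a regular normal subgroup. -/
theorem exists_regular_of_stabilizer_regular {G α : Type*} [Group G] [MulAction G α]
    [FaithfulSMul G α] [Finite α] [IsPretransitive G α] (N : Subgroup G) [hNn : N.Normal]
    [IsPretransitive N α] (hcard : 1 < Nat.card α) (a : α)
    (hXt : IsPretransitive (N.subgroupOf (stabilizer G a)) (SubMulAction.ofStabilizer G a))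
    (hsemi : ∀ z : SubMulAction.ofStabilizer G a, stabilizer (N.subgroupOf (stabilizer G a)) z = ⊥) :
    ∃ K : Subgroup G, K.Normal ∧ IsPretransitive K α ∧ ∀ x : α, stabilizer K x = ⊥ := by
  haveI hN2 : IsMultiplyPretransitive N α 2 :=
    transitive_succ N a (is_one_pretransitive_iff.mpr hXt)
  have hsharp : ∀ x : Fin 2 ↪ α, stabilizer N x = ⊥ := by
    intro x
    rw [Subgroup.eq_bot_iff_forall]
    intro n hn
    obtain ⟨g, hg⟩ := MulAction.exists_smul_eq G (x 0) a
    have hn0 : (n : G) • x 0 = x 0 := congrArg (fun y : Fin 2 ↪ α => y 0) hn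
    have hn1 : (n : G) • x 1 = x 1 := congrArg (fun y : Fin 2 ↪ α => y 1) hn
    have hm : g * n * g⁻¹ ∈ stabilizer G a := by
      rw [mem_stabilizer_iff, mul_smul, mul_smul, inv_smul_eq_iff.mpr hg.symm, hn0, hg]
    have hz : g • x 1 ≠ a := fun h =>
      absurd (x.injective (MulAction.injective g (h.trans hg.symm))) (by decide)
    have h1 : (⟨⟨g * n * g⁻¹, hm⟩, hNn.conj_mem _ n.2 g⟩ : N.subgroupOf (stabilizer G a)) ∈
        stabilizer (N.subgroupOf (stabilizer G a)) (⟨g • x 1, hz⟩ : SubMulAction.ofStabilizer G a) :=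
      mem_stabilizer_iff.mpr (Subtype.ext (by
        show (g * n * g⁻¹) • (g • x 1) = g • x 1
        rw [mul_smul, inv_smul_smul, mul_smul, hn1]))
    rw [hsemi, Subgroup.mem_bot] at h1
    have h1' : g * n * g⁻¹ = 1 :=
      congrArg (fun m : N.subgroupOf (stabilizer G a) => ((m : stabilizer G a) : G)) h1
    exact Subtype.ext (conj_eq_one_iff.mp h1')
  haveI : Finite G := Finite.of_injective (fun g : G => fun b : α => g • b)
    (fun g h e => FaithfulSMul.eq_of_smul_eq_smul fun b => congrFun e b)
  obtain ⟨p, j, K, hp, hj, hcardα, -, -, hmem, -, -, hKsemi, hKtr⟩ :=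
    CfsgLib.SharpTwo.exists_regular_normal (G := N) hsharp hcard
  refine ⟨K.map N.subtype, ⟨?_⟩, ⟨fun x y => ?_⟩, fun x => ?_⟩
  · rintro _ ⟨m, hm, rfl⟩ g
    refine ⟨⟨g * m * g⁻¹, hNn.conj_mem _ m.2 g⟩, (hmem _).mpr ?_, rfl⟩
    rcases (hmem m).mp hm with h | h
    · left
      subst h
      exact Subtype.ext (by simp)
    · right
      intro b hb
      apply h (g⁻¹ • b)
      show (m : G) • g⁻¹ • b = g⁻¹ • b
      rw [eq_inv_smul_iff, ← mul_smul, ← mul_smul]
      exact hb
  · obtain ⟨m, hm, hxy⟩ := hKtr x y
    exact ⟨⟨m, ⟨m, hm, rfl⟩⟩, hxy⟩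
  · rw [Subgroup.eq_bot_iff_forall]
    rintro ⟨_, m, hm, rfl⟩ hx
    exact Subtype.ext (by simp [hKsemi m hm x hx])

theorem kPrimitive_transitive (k : ℕ) : ∀ {G α : Type*} [Group G] [MulAction G α] [FaithfulSMul G α]
    [Finite α], k + 1 ≤ Nat.card α → IsMultiplyPreprimitive G α (k + 1) →
    Nat.card G ≠ (Nat.card α).factorial → ∀ N : Subgroup G, N.Normal → N ≠ ⊥ →
    (∃ a : α, stabilizer N a ≠ ⊥) → IsMultiplyPretransitive N α (k + 1) := by
  induction k with
  | zero =>
    intro G α _ _ _ _ hcard hG htopG N hNn hN hnr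
    haveI := hNn
    haveI : IsPreprimitive G α := (is_one_preprimitive_iff G α).mp hG
    refine is_one_pretransitive_iff.mpr (IsQuasiPreprimitive.isPretransitive_of_normal (G := G) ?_)
    intro hfix
    refine hN ((Subgroup.eq_bot_iff_forall N).mpr fun n hn => ?_)
    refine FaithfulSMul.eq_of_smul_eq_smul (α := α) fun a => ?_
    rw [one_smul]
    exact (Set.eq_univ_iff_forall.mp hfix a) ⟨n, hn⟩
  | succ k ih =>
    intro G α _ _ _ _ hcard hG htopG N hNn hN ⟨a, ha⟩
    haveI := hNn
    haveI := hG
    haveI := Fintype.ofFinite α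
    haveI hGk : IsMultiplyPretransitive G α (k + 1 + 1) := hG.isMultiplyPretransitive
    haveI h2 : IsMultiplyPretransitive G α 2 :=
      isMultiplyPretransitive_of_le (n := k + 1 + 1) (by omega) hcard
    haveI hNt := transitive_of_normal h2 N hN
    haveI : IsPretransitive G α := isPretransitive_of_is_two_pretransitive
    haveI : FaithfulSMul (stabilizer G a) (SubMulAction.ofStabilizer G a) := faithful_ofStabilizer a
    have hne : N.subgroupOf (stabilizer G a) ≠ ⊥ := by
      intro hbot
      refine ha ((Subgroup.eq_bot_iff_forall _).mpr fun n hn => ?_)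
      have : (⟨(n : G), hn⟩ : stabilizer G a) ∈ N.subgroupOf (stabilizer G a) := n.2
      rw [hbot, Subgroup.mem_bot] at this
      exact Subtype.ext (congrArg (Subtype.val : stabilizer G a → G) this)
    have hcardX : Nat.card (SubMulAction.ofStabilizer G a) + 1 = Nat.card α :=
      SubMulAction.nat_card_ofStabilizer_add_one_eq (G := G) (a := a)
    have hGa : IsMultiplyPreprimitive (stabilizer G a) (SubMulAction.ofStabilizer G a) (k + 1) :=
      isMultiplyPreprimitive_ofStabilizer G α
    have htop : Nat.card (stabilizer G a) ≠ (Nat.card (SubMulAction.ofStabilizer G a)).factorial := by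
      intro hc
      apply htopG
      rw [← (stabilizer G a).index_mul_card, index_stabilizer_of_transitive, hc, ← hcardX,
        Nat.factorial_succ, hcardX]
    by_cases hreg : ∃ z : SubMulAction.ofStabilizer G a,
        stabilizer (N.subgroupOf (stabilizer G a)) z ≠ ⊥
    · exact transitive_succ N a (ih (by omega) hGa htop _ inferInstance hne hreg)
    · push Not at hreg
      have hXt : IsPretransitive (N.subgroupOf (stabilizer G a)) (SubMulAction.ofStabilizer G a) := by
        haveI : IsPreprimitive (stabilizer G a) (SubMulAction.ofStabilizer G a) :=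
          (is_one_preprimitive_iff _ _).mp (isMultiplyPreprimitive_of_le _ _ hGa (by omega)
            (by haveI := Fintype.ofFinite (SubMulAction.ofStabilizer G a); rw [ENat.card_eq_coe_fintype_card, ← Nat.card_eq_fintype_card]; norm_cast; omega))
        refine IsQuasiPreprimitive.isPretransitive_of_normal (G := stabilizer G a) ?_
        intro hfix
        refine hne ((Subgroup.eq_bot_iff_forall _).mpr fun n hn => ?_)
        refine FaithfulSMul.eq_of_smul_eq_smul (α := SubMulAction.ofStabilizer G a) fun z => ?_
        rw [one_smul]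
        exact (Set.eq_univ_iff_forall.mp hfix z) ⟨n, hn⟩
      rcases Nat.eq_zero_or_pos k with rfl | hk
      · exact transitive_succ N a (is_one_pretransitive_iff.mpr hXt)
      · exfalso
        obtain ⟨K, hKn, hKt, hKreg⟩ :=
          exists_regular_of_stabilizer_regular N (by omega) a hXt hreg
        haveI := hKn
        have h3 : IsMultiplyPreprimitive G α 3 :=
          isMultiplyPreprimitive_of_le _ _ hG (by omega)
            (by simp only [ENat.card_eq_coe_fintype_card]; norm_cast; rw [← Nat.card_eq_fintype_card]; omega)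
        have h34 := triple (by rw [← Nat.card_eq_fintype_card]; omega) h3 hKt hKreg
        rw [← Nat.card_eq_fintype_card] at h34
        exact htopG (card_eq_factorial
          (isMultiplyPretransitive_of_le (n := k + 1 + 1) (by omega) hcard))

end CfsgLib.RegularNormal
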